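import Cfsg.Agent.H90.SingularClass.Basic

/-! Two commuting elements of order `p` with coprime class sizes have a common neighbour. -/

set_option autoImplicit false

namespace Cfsg.Agent.H90.SingularClass

variable {G : Type*} [Group G] [Finite G] {p : ℕ} [hp : Fact p.Prime]

omit hp in
theorem shift {x z : G} (hxz : Commute x z) (hcop : (cs x).Coprime (cs z))
    (hw : (cs (x * z)).Coprime (cs z)) (g : G) : ∃ k, k * x * k⁻¹ = x * (g * z * g⁻¹ * z⁻¹) := by
  obtain ⟨c, hc, c', hc', rfl⟩ := exists_mul hcop g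
  rw [mem_cent] at hc hc'
  obtain ⟨k, hk, k', hk', hck⟩ := exists_mul hw.symm c
  rw [mem_cent] at hk hk'
  refine ⟨k, ?_⟩
  have e1 : c * (x * z) * c⁻¹ = x * (c * z * c⁻¹) := by
    rw [show c * (x * z) * c⁻¹ = (c * x) * (z * c⁻¹) by group, hc.eq]; group
  have e2 : c * (x * z) * c⁻¹ = k * x * k⁻¹ * z := by
    rw [hck, show k * k' * (x * z) * (k * k')⁻¹ = k * (k' * (x * z)) * k'⁻¹ * k⁻¹ by group, hk'.eq]
    rw [show k * (x * z * k') * k'⁻¹ * k⁻¹ = k * x * (z * k⁻¹) by group, hk.inv_left.eq.symm]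
    group
  rw [show c * c' * z * (c * c')⁻¹ * z⁻¹ = c * (c' * z * c'⁻¹) * c⁻¹ * z⁻¹ by group, hc'.eq,
    mul_inv_cancel_right, ← mul_assoc, ← e1, e2, mul_inv_cancel_right]

omit hp in
/-- The commutators `[g, z]` have order dividing `p`. -/
theorem shift_pow {x z : G} (hxz : Commute x z) (hcop : (cs x).Coprime (cs z))
    (hw : (cs (x * z)).Coprime (cs z)) (hzp : z ^ p = 1) (g : G) :
    (g * z * g⁻¹ * z⁻¹) ^ p = 1 := by
  obtain ⟨k, hk⟩ := shift hxz hcop hw g
  have h1 : Commute (k * x * k⁻¹) z := by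
    have := (Commute.conj_iff k).mpr (commute_conj hxz hcop k⁻¹)
    rwa [show k * (k⁻¹ * z * k⁻¹⁻¹) * k⁻¹ = z by group] at this
  rw [hk] at h1
  have h2 : Commute (g * z * g⁻¹ * z⁻¹) z := by
    have := hxz.inv_left.mul_left h1
    rwa [inv_mul_cancel_left] at this
  have h3 : Commute (g * z * g⁻¹) z⁻¹ := by
    have := h2.mul_left (Commute.refl z)
    rw [inv_mul_cancel_right] at this
    exact this.inv_right
  rw [h3.mul_pow, conj_pow, hzp, mul_one, mul_inv_cancel, inv_pow, hzp, inv_one, mul_one]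

/-- If `cs (x * z)` is prime to `cs z`, then `p` divides the class size of `x`. -/
theorem dvd_cs {x z : G} (hxz : Commute x z) (hcop : (cs x).Coprime (cs z))
    (hw : (cs (x * z)).Coprime (cs z)) (hzp : z ^ p = 1) (hz : z ∉ Subgroup.center G) :
    p ∣ cs x := by
  by_contra hdvd
  obtain ⟨g, hg⟩ : ∃ g, g * z * g⁻¹ * z⁻¹ ≠ 1 := by
    by_contra h
    simp only [not_exists, not_not] at h
    exact hz (Subgroup.mem_center_iff.mpr fun g => by
      have := mul_inv_eq_one.mp (h g)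
      exact mul_inv_eq_iff_eq_mul.mp this)
  set d := g * z * g⁻¹ * z⁻¹ with hd
  have hX : ∀ a ∈ (ConjClasses.mk x).carrier, a * d ∈ (ConjClasses.mk x).carrier := by
    intro a ha
    rw [ConjClasses.mem_carrier_iff_mk_eq, ConjClasses.mk_eq_mk_iff_isConj, isConj_comm, isConj_iff] at ha ⊢
    obtain ⟨h, rfl⟩ := ha
    obtain ⟨k, hk, c, hc, rfl⟩ := exists_mul hcop.symm h
    rw [mem_cent] at hk hc
    obtain ⟨k2, hk2⟩ := shift hxz hcop hw (k⁻¹ * g)
    refine ⟨k * k2, ?_⟩
    rw [show k * c * x * (k * c)⁻¹ = k * (c * x * c⁻¹) * k⁻¹ by group, hc.eq, mul_inv_cancel_right,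
      show k * k2 * x * (k * k2)⁻¹ = k * (k2 * x * k2⁻¹) * k⁻¹ by group, hk2, hd,
      show k⁻¹ * g * z * (k⁻¹ * g)⁻¹ * z⁻¹ = k⁻¹ * g * z * g⁻¹ * (k * z⁻¹) by group, hk.inv_right.eq]
    group
  classical
  let X := {a : G // a ∈ (ConjClasses.mk x).carrier}
  haveI : Fintype X := Fintype.ofFinite X
  let f : X → X := fun a => ⟨a.1 * d, hX a.1 a.2⟩
  have hf : Function.Injective f := fun a b h => Subtype.ext (mul_right_cancel (congrArg Subtype.val h))
  let σ : Equiv.Perm X := Equiv.ofBijective f (Finite.injective_iff_bijective.mp hf)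
  have hσ : ∀ (i : ℕ) (a : X), ((σ ^ i) a : G) = (a : G) * d ^ i := by
    intro i
    induction i with
    | zero => intro a; simp
    | succ i ih =>
      intro a
      rw [pow_succ', Equiv.Perm.mul_apply]
      change ((σ ^ i) a : G) * d = _
      rw [ih, pow_succ, mul_assoc]
  have hσp : σ ^ p ^ 1 = 1 := Equiv.ext fun a => Subtype.ext (by
    rw [pow_one, hσ, hd, shift_pow hxz hcop hw hzp g, mul_one]; rfl)
  have hXcard : ¬ p ∣ Fintype.card X := by
    rw [← Nat.card_eq_fintype_card]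
    change ¬ p ∣ Nat.card ↥(ConjClasses.mk x).carrier
    rwa [Nat.card_coe_set_eq, H86.ncard_carrier_eq_index]
  obtain ⟨a, ha⟩ := Equiv.Perm.exists_fixed_point_of_prime hXcard hσp
  exact hg (mul_eq_left.mp (congrArg Subtype.val ha : (a : G) * d = a))

/-- A `p`-element `x ≠ 1` has order divisible by `p`. -/
theorem dvd_orderOf_of_mem {P : Subgroup G} (hP : IsPGroup p P) {g : G} (hg : g ∈ P) (hg1 : g ≠ 1) :
    p ∣ orderOf g := by
  obtain ⟨k, hk⟩ := H86.exists_orderOf_eq_pow_of_mem hP hg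
  rcases k with _ | k
  · exact absurd (orderOf_eq_one_iff.mp (by simpa using hk)) hg1
  · rw [hk]; exact dvd_pow_self p (Nat.succ_ne_zero k)

/-- The main case. -/
theorem link_of_shift {x z : G} (hxo : orderOf x = p) (hzo : orderOf z = p) (hxz : Commute x z)
    (hzc : z ∉ Subgroup.center G)
    (hcop : (cs x).Coprime (cs z)) (hw : (cs (x * z)).Coprime (cs z)) :
    ∃ w : G, p ∣ orderOf w ∧ ¬ (cs w).Coprime (cs x) ∧ ¬ (cs w).Coprime (cs z) := by
  classical
  have hzp : z ^ p = 1 := by rw [← hzo]; exact pow_orderOf_eq_one z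
  have hpx : p ∣ cs x := dvd_cs hxz hcop hw hzp hzc
  have hpz : ¬ p ∣ cs z := fun h => hp.out.one_lt.ne' (Nat.eq_one_of_dvd_coprimes hcop hpx h)
  have hn1 : cs z ≠ 1 := cs_ne_one hzc
  by_contra hno
  simp only [not_exists, not_and, not_not] at hno
  -- `hno : ∀ w, p ∣ orderOf w → ¬ coprime to cs x → coprime to cs z`
  have hnotcop : ∀ {a b : ℕ} {q : ℕ}, q.Prime → q ∣ a → q ∣ b → ¬ a.Coprime b :=
    fun hq ha hb hc => hq.ne_one (Nat.eq_one_of_dvd_coprimes hc ha hb)
  set L := Subgroup.centralizer ({z} : Set G) with hL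
  -- `p'`-elements of `L`
  have hprime : ∀ h ∈ L, (orderOf h).Coprime p → ¬ p ∣ cs (z * h) := by
    intro h hh hcp hd
    rw [mem_cent] at hh
    have hord : p ∣ orderOf (z * h) := by
      rw [hh.symm.orderOf_mul_eq_mul_orderOf_of_coprime (by rw [hzo]; exact hcp.symm), hzo]
      exact dvd_mul_right p _
    have hsplit : ∀ g, Commute g (z * h) → Commute g z := by
      intro g hg
      obtain ⟨t, ht⟩ := exists_pow_eq_self_of_coprime (x := z) (n := orderOf h)
        (by rw [hzo]; exact hcp)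
      have e : ((z * h) ^ orderOf h) ^ t = z := by
        rw [hh.symm.mul_pow, pow_orderOf_eq_one, mul_one, ht]
      rw [← e]; exact (hg.pow_right _).pow_right _
    have hdvd : cs z ∣ cs (z * h) := cs_dvd_of_commute_imp hsplit
    obtain ⟨q, hq, hqn⟩ := Nat.exists_prime_and_dvd hn1
    exact hnotcop hq (hqn.trans hdvd) hqn (hno _ hord (hnotcop hp.out hd hpx))
  -- every element of `L` normalises a Sylow subgroup contained in `L`
  have hsyl : ∀ g ∈ L, ∃ P : Sylow p G, (P : Subgroup G) ≤ L ∧ g ∈ Subgroup.normalizer (P : Set G) ∧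
      ((orderOf g).Coprime p → ∀ e ∈ (P : Subgroup G), Commute g e) := by
    intro g hg
    obtain ⟨a, b, ha, hb, hab, ⟨k, hk⟩, hbp⟩ :=
      H86.exists_pPart_mul_pPrimePart g (isOfFinOrder_of_finite g) hp.out
    have hgL := Subgroup.zpowers_le.mpr hg
    have hbL := hgL hb
    have haL := hgL ha
    have hb' := mem_cent.mp hbL
    have haC : a ∈ Subgroup.centralizer ({z * b} : Set G) := mem_cent.mpr ((mem_cent.mp haL).mul_right (by
      obtain ⟨i, rfl⟩ := Subgroup.mem_zpowers_iff.mp ha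
      obtain ⟨j, rfl⟩ := Subgroup.mem_zpowers_iff.mp hb
      exact (Commute.refl g).zpow_zpow i j))
    obtain ⟨P, haP, hPle⟩ := exists_sylow_le (hprime b hbL hbp)
      (IsPGroup.of_card (n := k) (by rw [Nat.card_zpowers, hk])) (Subgroup.zpowers_le.mpr haC)
    have hsplit : ∀ e, Commute e (z * b) → Commute e z := by
      intro e he
      obtain ⟨t, ht⟩ := exists_pow_eq_self_of_coprime (x := z) (n := orderOf b)
        (by rw [hzo]; exact hbp)
      have e' : ((z * b) ^ orderOf b) ^ t = z := by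
        rw [hb'.symm.mul_pow, pow_orderOf_eq_one, mul_one, ht]
      rw [← e']; exact (he.pow_right _).pow_right _
    have hPL : ∀ e ∈ (P : Subgroup G), Commute e z := fun e he => hsplit e (mem_cent.mp (hPle he))
    have hPb : ∀ e ∈ (P : Subgroup G), Commute b e := fun e he => by
      have := (hPL e he).inv_right.mul_right (mem_cent.mp (hPle he))
      rw [inv_mul_cancel_left] at this
      exact this.symm
    refine ⟨P, fun e he => mem_cent.mpr (hPL e he), ?_, fun hgp e he => ?_⟩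
    · rw [← hab]
      refine mul_mem (Subgroup.le_normalizer (haP (Subgroup.mem_zpowers a)))
        (Subgroup.centralizer_le_normalizer _ ?_)
      exact Subgroup.mem_centralizer_iff.mpr fun e he => (hPb e he).eq.symm
    · have ha1 : a = 1 := by
        refine orderOf_eq_one_iff.mp (Nat.eq_one_of_dvd_coprimes (hgp.pow_right k) ?_ (hk ▸ dvd_rfl))
        exact orderOf_dvd_of_mem_zpowers ha
      rw [← hab, ha1, one_mul]; exact hPb e he
  obtain ⟨P, hPL, -, -⟩ := hsyl 1 (one_mem L)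
  have hN : L ≤ Subgroup.normalizer (P : Set G) := by
    rw [← Subgroup.subgroupOf_eq_top]
    refine H86.eq_top_of_conjugates_cover _ fun g => ?_
    obtain ⟨Q, hQL, hgQ, -⟩ := hsyl g g.2
    obtain ⟨l, hl⟩ := MulAction.exists_smul_eq L (P.subtype hPL) (Q.subtype hQL)
    have hmem : ∀ e : G, (e ∈ (Q : Subgroup G)) → (l : G)⁻¹ * e * l ∈ (P : Subgroup G) := by
      intro e he
      have h1 : (⟨e, hQL he⟩ : L) ∈ ((l • P.subtype hPL : Sylow p L) : Subgroup L) := by
        rw [hl]; exact he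
      rw [Sylow.coe_subgroup_smul, Subgroup.mem_pointwise_smul_iff_inv_smul_mem] at h1
      simp [Subgroup.mem_subgroupOf] at h1
      exact h1
    have hQ : Nat.card Q = Nat.card P := Q.card_eq_multiplicity.trans P.card_eq_multiplicity.symm
    have heq : (Q : Subgroup G).map (MulAut.conj (l : G)⁻¹).toMonoidHom = P := by
      refine Subgroup.eq_of_le_of_card_ge ?_ ?_
      · rintro _ ⟨e, he, rfl⟩
        simpa using hmem e he
      · rw [Subgroup.card_map_of_injective (MulAut.conj (l : G)⁻¹).injective]; exact hQ.ge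
    refine ⟨l, ?_⟩
    rw [Subgroup.mem_subgroupOf]
    have h2 := Subgroup.le_normalizer_map (MulAut.conj (l : G)⁻¹).toMonoidHom ⟨g, hgQ, rfl⟩
    rw [heq] at h2
    simpa using h2
  have huniq : ∀ Q : Sylow p G, (Q : Subgroup G) ≤ L → Q = P := fun Q hQ => by
    have h1 := Q.isPGroup'.inf_normalizer_sylow P
    rw [inf_eq_left.mpr (hQ.trans hN)] at h1
    exact (Sylow.ext (Q.is_maximal' P.isPGroup' (inf_eq_left.mp h1.symm))).symm
  have hxP : x ∈ (P : Subgroup G) := by
    obtain ⟨Q, hxQ, hQL⟩ := exists_sylow_le (H := L) hpz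
      (IsPGroup.of_card (n := 1) (by rw [Nat.card_zpowers, hxo, pow_one]))
      (Subgroup.zpowers_le.mpr (mem_cent.mpr hxz))
    rw [← huniq Q hQL]; exact hxQ (Subgroup.mem_zpowers x)
  -- conjugation by `L` is conjugation by `P`
  have hinner : ∀ k ∈ L, ∀ e ∈ (P : Subgroup G), ∃ a ∈ (P : Subgroup G), k * e * k⁻¹ = a * e * a⁻¹ := by
    intro k hk e he
    obtain ⟨a, b, ha, hb, hab, ⟨i, hi⟩, hbp⟩ :=
      H86.exists_pPart_mul_pPrimePart k (isOfFinOrder_of_finite k) hp.out
    have hbL := Subgroup.zpowers_le.mpr hk hb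
    have haL := Subgroup.zpowers_le.mpr hk ha
    obtain ⟨Q, hQL, -, hQb⟩ := hsyl b hbL
    rw [huniq Q hQL] at hQb
    obtain ⟨R, haR, hRL⟩ := exists_sylow_le (H := L) hpz (Q := Subgroup.zpowers a)
      (IsPGroup.of_card (n := i) (by rw [Nat.card_zpowers, hi])) (Subgroup.zpowers_le.mpr haL)
    rw [huniq R hRL] at haR
    refine ⟨a, haR (Subgroup.mem_zpowers a), ?_⟩
    rw [← hab, show a * b * e * (a * b)⁻¹ = a * (b * e * b⁻¹) * a⁻¹ by group, (hQb hbp e he).eq,
      mul_inv_cancel_right]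
  -- conjugates of `x`
  have hxcl : ∀ g : G, ∃ a ∈ (P : Subgroup G), g * x * g⁻¹ = a * x * a⁻¹ := by
    intro g
    obtain ⟨k, hk, c, hc, rfl⟩ := exists_mul hcop.symm g
    obtain ⟨a, ha, hax⟩ := hinner k hk x hxP
    refine ⟨a, ha, ?_⟩
    rw [mem_cent] at hc
    rw [show k * c * x * (k * c)⁻¹ = k * (c * x * c⁻¹) * k⁻¹ by group, hc.eq, mul_inv_cancel_right, hax]
  have hxall : ∀ Q : Sylow p G, x ∈ (Q : Subgroup G) := by
    intro Q
    obtain ⟨g, rfl⟩ := MulAction.exists_smul_eq G P Q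
    rw [Sylow.coe_subgroup_smul, Subgroup.mem_pointwise_smul_iff_inv_smul_mem]
    obtain ⟨a, ha, hax⟩ := hxcl g⁻¹
    change (MulAut.conj g)⁻¹ x ∈ (P : Subgroup G)
    rw [MulAut.conj_inv_apply]
    rw [inv_inv] at hax
    rw [hax]; exact mul_mem (mul_mem ha hxP) (inv_mem ha)
  -- elements moving `x`
  have hcent : ∀ g ∈ (P : Subgroup G), Commute g z := fun g hg => mem_cent.mp (hPL hg)
  have hbig : ∀ g ∈ (P : Subgroup G), ¬ Commute g x → ∀ h : G, Commute g (h * z * h⁻¹) := by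
    intro g hg hgx
    refine commute_conj (hcent g hg) (hno g (dvd_orderOf_of_mem P.isPGroup' hg fun e => hgx (e ▸ Commute.one_left x)) (hnotcop hp.out ?_ hpx))
    by_contra hd
    have hd' : ¬ p ∣ (Subgroup.centralizer ({g} : Set G)).index := hd
    obtain ⟨Q, -, hQ⟩ := exists_sylow_le hd' (Q := (⊥ : Subgroup G)) IsPGroup.of_bot bot_le
    exact hgx (mem_cent.mp (hQ (hxall Q))).symm
  obtain ⟨g0, hg0, hg0x⟩ : ∃ g0 ∈ (P : Subgroup G), ¬ Commute g0 x := by
    by_contra h
    simp only [not_exists, not_and, not_not] at h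
    exact P.not_dvd_index (hpx.trans (Subgroup.index_dvd_of_le fun e he => mem_cent.mpr (h e he)))
  have hPz : ∀ g ∈ (P : Subgroup G), ∀ h : G, Commute g (h * z * h⁻¹) := by
    intro g hg h
    by_cases hgx : Commute g x
    · have h1 : ¬ Commute (g * g0) x := fun h' => hg0x (by
        simpa using hgx.inv_left.mul_left h')
      have := (hbig _ (mul_mem hg hg0) h1 h).mul_left (hbig g0 hg0 hg0x h).inv_left
      rwa [mul_inv_cancel_right] at this
    · exact hbig g hg hgx h
  -- `P` is normal, hence the only Sylow subgroup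
  have honly : ∀ Q : Sylow p G, Q = P := by
    intro Q
    obtain ⟨g, rfl⟩ := MulAction.exists_smul_eq G P Q
    refine huniq _ ?_
    rw [Sylow.coe_subgroup_smul]
    rintro _ ⟨a, ha, rfl⟩
    refine mem_cent.mpr ?_
    change Commute (g * a * g⁻¹) z
    have h1 := (Commute.conj_iff g).mpr (hPz a ha g⁻¹)
    rwa [show g * (g⁻¹ * z * g⁻¹⁻¹) * g⁻¹ = z by group] at h1
  -- a prime-power element moving `z`
  obtain ⟨u, hu, hun⟩ := Nat.exists_prime_and_dvd hn1
  haveI := Fact.mk hu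
  have hup : u ≠ p := fun e => hpz (e ▸ hun)
  obtain ⟨y, hyS, hyL⟩ : ∃ y ∈ (default : Sylow u G).1, y ∉ L := by
    by_contra h
    simp only [not_exists, not_and, not_not] at h
    exact (default : Sylow u G).not_dvd_index (hun.trans (Subgroup.index_dvd_of_le fun e he => h e he))
  set Cy := (Subgroup.centralizer ({y} : Set G)).subgroupOf (P : Subgroup G) with hCy
  have hcover : Cy ⊔ Subgroup.center (P : Subgroup G) = ⊤ := by
    refine H86.eq_top_of_conjugates_cover _ fun g => ?_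
    by_cases hgc : g ∈ Subgroup.center (P : Subgroup G)
    · exact ⟨1, Subgroup.mem_sup_right (by simpa using hgc)⟩
    have hg1 : (g : G) ≠ 1 := fun e => hgc (by rw [show g = 1 from Subtype.ext e]; exact one_mem _)
    have hpg : p ∣ cs (g : G) := by
      by_contra hd
      have hd' : ¬ p ∣ (Subgroup.centralizer ({(g : G)} : Set G)).index := hd
      obtain ⟨Q, -, hQ⟩ := exists_sylow_le hd' (Q := (⊥ : Subgroup G)) IsPGroup.of_bot bot_le
      rw [honly Q] at hQ
      exact hgc (Subgroup.mem_center_iff.mpr fun e => Subtype.ext (mem_cent.mp (hQ e.2)).eq)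
    have hgz := hno (g : G) (dvd_orderOf_of_mem P.isPGroup' g.2 hg1) (hnotcop hp.out hpg hpx)
    -- a conjugate of `g` commuting with `y`
    let Y := Subgroup.zpowers (ConjAct.toConjAct y)
    have hY : IsPGroup u Y := by
      obtain ⟨i, hi⟩ := H86.exists_orderOf_eq_pow_of_mem (default : Sylow u G).isPGroup' hyS
      refine IsPGroup.of_card (n := i) ?_
      rw [Nat.card_zpowers, ← hi]
      exact MulEquiv.orderOf_eq (ConjAct.toConjAct : G ≃* ConjAct G) y
    have hnu : ¬ u ∣ Nat.card (MulAction.orbit (ConjAct G) (g : G)) := by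
      rw [Nat.card_coe_set_eq, ← MulAction.index_stabilizer, ConjAct.stabilizer_eq_centralizer]
      exact fun h => hnotcop hu h hun hgz
    obtain ⟨⟨g', hg'⟩, hfix⟩ := hY.nonempty_fixed_point_of_prime_not_dvd_card _ hnu
    have hcomm : Commute y g' := by
      have := congrArg Subtype.val (hfix ⟨_, Subgroup.mem_zpowers _⟩)
      change ConjAct.toConjAct y • g' = g' at this
      rw [ConjAct.toConjAct_smul] at this
      exact mul_inv_eq_iff_eq_mul.mp this
    obtain ⟨t, rfl⟩ := hg'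
    obtain ⟨l, hl, c, hc, htc⟩ := exists_mul hgz.symm (ConjAct.ofConjAct t)
    obtain ⟨a, ha, hal⟩ := hinner l hl g g.2
    rw [mem_cent] at hc
    refine ⟨⟨a, ha⟩⁻¹, Subgroup.mem_sup_left ?_⟩
    rw [hCy, Subgroup.mem_subgroupOf, mem_cent]
    simp only [Subgroup.coe_mul, InvMemClass.coe_inv, inv_inv]
    rw [← hal]
    have e : (t • (g : G)) = l * g * l⁻¹ := by
      rw [ConjAct.smul_def, htc, show l * c * g * (l * c)⁻¹ = l * (c * g * c⁻¹) * l⁻¹ by group, hc.eq,
        mul_inv_cancel_right]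
    rw [← e]
    exact hcomm.symm
  -- the contradiction
  obtain ⟨k, hk⟩ := shift hxz hcop hw y
  obtain ⟨a, ha, hka⟩ := hxcl k
  rw [hka] at hk
  set d := y * z * y⁻¹ * z⁻¹ with hd
  have hdy : Commute y d := by
    obtain ⟨c1, hc1, e1, he1, hx1⟩ := Subgroup.mem_sup_of_normal_right.mp
      (hcover.ge (Subgroup.mem_top (⟨x, hxP⟩ : (P : Subgroup G))))
    obtain ⟨c2, hc2, e2, he2, ha2⟩ := Subgroup.mem_sup_of_normal_right.mp
      (hcover.ge (Subgroup.mem_top (⟨a, ha⟩ : (P : Subgroup G))))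
    have hd' : d = ((c1⁻¹ * c2 * c1 * c2⁻¹ : (P : Subgroup G)) : G) := by
      have h1 : d = ((⟨x, hxP⟩⁻¹ * (⟨a, ha⟩ * ⟨x, hxP⟩ * ⟨a, ha⟩⁻¹) : (P : Subgroup G)) : G) := by
        simp only [Subgroup.coe_mul, InvMemClass.coe_inv]
        rw [hk, inv_mul_cancel_left]
      rw [h1, ← hx1, ← ha2]
      congr 1
      have c12 := Subgroup.mem_center_iff.mp he1
      have c22 := Subgroup.mem_center_iff.mp he2
      rw [show c2 * e2 * (c1 * e1) * (c2 * e2)⁻¹ = c2 * (e2 * (c1 * e1) * e2⁻¹) * c2⁻¹ by group,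
        (c22 (c1 * e1)).symm, mul_inv_cancel_right,
        show (c1 * e1)⁻¹ * (c2 * (c1 * e1) * c2⁻¹) = e1⁻¹ * (c1⁻¹ * c2 * c1) * (e1 * c2⁻¹) by group,
        (c12 c2⁻¹).symm,
        show e1⁻¹ * (c1⁻¹ * c2 * c1) * (c2⁻¹ * e1) = e1⁻¹ * ((c1⁻¹ * c2 * c1 * c2⁻¹) * e1) by group,
        c12 (c1⁻¹ * c2 * c1 * c2⁻¹), inv_mul_cancel_left]
    have hmem : c1⁻¹ * c2 * c1 * c2⁻¹ ∈ Cy :=
      mul_mem (mul_mem (mul_mem (inv_mem hc1) hc2) hc1) (inv_mem hc2)
    rw [hd']
    exact (mem_cent.mp (Subgroup.mem_subgroupOf.mp hmem)).symm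
  have hiter : ∀ i : ℕ, y ^ i * z * (y ^ i)⁻¹ = d ^ i * z := by
    intro i
    induction i with
    | zero => simp
    | succ i ih =>
      rw [pow_succ', show y * y ^ i * z * (y * y ^ i)⁻¹ = y * (y ^ i * z * (y ^ i)⁻¹) * y⁻¹ by group, ih,
        show y * (d ^ i * z) * y⁻¹ = (y * d ^ i) * z * y⁻¹ by group, (hdy.pow_right i).eq, pow_succ, hd]
      group
  have hd1 : d ^ orderOf y = 1 := by
    have := hiter (orderOf y)
    rw [pow_orderOf_eq_one, one_mul, inv_one, mul_one] at this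
    exact right_eq_mul.mp this
  obtain ⟨i, hi⟩ := H86.exists_orderOf_eq_pow_of_mem (default : Sylow u G).isPGroup' hyS
  have hcopyp : (orderOf y).Coprime p := by
    rw [hi]; exact ((Nat.coprime_primes hu hp.out).mpr hup).pow_left i
  have : d = 1 := orderOf_eq_one_iff.mp (Nat.eq_one_of_dvd_coprimes hcopyp
    (orderOf_dvd_of_pow_eq_one hd1) (orderOf_dvd_of_pow_eq_one (shift_pow hxz hcop hw hzp y)))
  exact hyL (mem_cent.mpr (mul_inv_eq_iff_eq_mul.mp (mul_inv_eq_one.mp this)))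

end Cfsg.Agent.H90.SingularClass
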